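import Mathlib
import Cfsg.Agent.Lib.Helper81.CS3.NGDefs
import Cfsg.Agent.Lib.Helper71.MaxSolv

/-!
CS3 (S4284), part NG, package [II]: `m` prime and all non-central `m`-elements of type (ii)
⟹ `HasQ`.
-/

set_option autoImplicit false

namespace Cfsg.Agent.Lib.Helper21.CS3

open Cfsg.Agent.Lib.Helper81.CS3

universe u

/-- a normal subgroup of order prime to the prime `m` centralizes every element of class size
`1` or `m`. -/
theorem ii_central_of_coprime {G : Type u} [Group G] [Finite G] (m : ℕ) (hmp : m.Prime)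
    (X : Subgroup G) (hX : X.Normal) (hcop : (Nat.card X).Coprime m) (v : G)
    (hv : idx v = 1 ∨ idx v = m) : ∀ u ∈ X, Commute u v := by
  have hN : X.Normal := hX
  have h1 : (Subgroup.centralizer ({v} : Set G)).relIndex X ∣ idx v := by
    rw [Cfsg.Agent.Lib.Helper71.relIndex_eq_relIndex_sup_of_normal_right
      (Subgroup.centralizer ({v} : Set G)) X]
    exact Subgroup.relIndex_dvd_index_of_le le_sup_left
  have h2 : (Subgroup.centralizer ({v} : Set G)).relIndex X ∣ Nat.card X :=
    Subgroup.relIndex_dvd_card _ _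
  have h3 : (Subgroup.centralizer ({v} : Set G)).relIndex X = 1 := by
    rcases hv with hv | hv
    · rw [hv] at h1
      exact Nat.dvd_one.1 h1
    · rw [hv] at h1
      rcases (Nat.dvd_prime hmp).1 h1 with h | h
      · exact h
      · exfalso
        rw [h] at h2
        have h4 : m ∣ Nat.gcd (Nat.card X) m := Nat.dvd_gcd h2 dvd_rfl
        rw [hcop] at h4
        exact hmp.one_lt.ne' (Nat.dvd_one.1 h4)
  have h5 : X ≤ Subgroup.centralizer ({v} : Set G) := Subgroup.relIndex_eq_one.1 h3
  intro u hu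
  have h6 := Subgroup.mem_centralizer_iff.1 (h5 hu) v (Set.mem_singleton v)
  exact h6.symm

theorem pkgII (hStr : PkgStr.{u}) (hNor : PkgNor.{u}) (hSyl : PkgSyl.{u}) : PkgII.{u} := by
  intro G _ _ m n hyp hNG hmp hall
  classical
  have hidx : ∀ x : G, idx x = 1 ∨ idx x = m ∨ idx x = m * n := by
    intro x
    have h : idx x ∈ Set.range (fun x : G => (Subgroup.centralizer ({x} : Set G)).index) :=
      ⟨x, rfl⟩
    rw [hyp.2.2.2.2] at h
    simpa using h
  -- the generating set
  let T : Set G := {u | ∃ b : G, PM m m b ∧ Commute u b ∧ (orderOf u).Coprime m}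
  -- T is closed under conjugation
  have hTconj : ∀ a : G, a ∈ Group.conjugatesOfSet T → a ∈ T := by
    intro a ha
    obtain ⟨u, ⟨b, hb, hub, hcop⟩, hconj⟩ := Group.mem_conjugatesOfSet_iff.1 ha
    obtain ⟨g, rfl⟩ := isConj_iff.1 hconj
    refine ⟨b, hb, hNor m n hyp hNG hmp b hb (hall b hb) u g hub hcop, ?_⟩
    have ho : orderOf (g * u * g⁻¹) = orderOf u :=
      orderOf_injective (MulAut.conj g).toMonoidHom (MulAut.conj g).injective u
    rw [ho]
    exact hcop
  -- elements of T commute pairwise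
  have hTcomm : ∀ u ∈ T, ∀ u' ∈ T, Commute u u' := by
    rintro u ⟨b, hb, hub, hcop⟩ u' ⟨b', hb', hub', hcop'⟩
    obtain ⟨-, Sb, Ab, -, hAb, -, -, -, hAbcop⟩ := hStr m n hyp hNG m b hb
    have hAbN : Ab.Normal := by
      refine ⟨fun x hx g => ?_⟩
      obtain ⟨hxb, hxc⟩ := (hAb x).1 hx
      refine (hAb _).2 ⟨hNor m n hyp hNG hmp b hb (hall b hb) x g hxb hxc, ?_⟩
      have ho : orderOf (g * x * g⁻¹) = orderOf x :=
        orderOf_injective (MulAut.conj g).toMonoidHom (MulAut.conj g).injective x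
      rw [ho]
      exact hxc
    have hv : idx u' = 1 ∨ idx u' = m := by
      rcases hidx u' with h | h | h
      · exact Or.inl h
      · exact Or.inr h
      · exact absurd h (hall b' hb' u' hub' hcop')
    exact ii_central_of_coprime m hmp Ab hAbN hAbcop u' hv u ((hAb u).2 ⟨hub, hcop⟩)
  let Q : Subgroup G := Subgroup.normalClosure T
  have hQdef : Q = Subgroup.closure (Group.conjugatesOfSet T) := rfl
  -- Q is abelian
  have hQc1 : Q ≤ Subgroup.centralizer (Group.conjugatesOfSet T) := by
    rw [hQdef, Subgroup.closure_le]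
    intro x hx
    exact Subgroup.mem_centralizer_iff.2 (fun y hy =>
      (hTcomm y (hTconj y hy) x (hTconj x hx)).eq)
  have hQc2 : Q ≤ Subgroup.centralizer (Q : Set G) := by
    rw [hQdef, Subgroup.closure_le]
    intro x hx
    refine Subgroup.mem_centralizer_iff.2 (fun y hy => ?_)
    have hy' : y ∈ Subgroup.centralizer (Group.conjugatesOfSet T) := hQc1 (hQdef ▸ hy)
    exact (Subgroup.mem_centralizer_iff.1 hy' x hx).symm
  have hQab : IsMulCommutative Q := Subgroup.le_centralizer_iff_isMulCommutative.1 hQc2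
  have hQcomm : ∀ x ∈ Q, ∀ y ∈ Q, Commute x y := fun x hx y hy =>
    (Subgroup.mem_centralizer_iff.1 (hQc2 hy) x hx)
  -- every element of Q has order prime to m
  have hQord : ∀ x ∈ Q, (orderOf x).Coprime m := by
    intro x hx
    rw [hQdef] at hx
    refine Subgroup.closure_induction (p := fun x _ => (orderOf x).Coprime m) ?_ ?_ ?_ ?_ hx
    · intro a ha
      obtain ⟨b, -, -, hcop⟩ := hTconj a ha
      exact hcop
    · simp
    · intro a b ha hb hpa hpb
      have hc : Commute a b := hQcomm a (hQdef ▸ ha) b (hQdef ▸ hb)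
      exact Nat.Coprime.coprime_dvd_left (hc.orderOf_mul_dvd_lcm.trans (Nat.lcm_dvd_mul _ _))
        (Nat.Coprime.mul_left hpa hpb)
    · intro a ha hpa
      rw [orderOf_inv]
      exact hpa
  refine ⟨Q, Subgroup.normalClosure_normal, hQab, ?_, ?_⟩
  · -- |Q| coprime to m
    have : Fact m.Prime := ⟨hmp⟩
    rw [Nat.coprime_comm, Nat.Prime.coprime_iff_not_dvd hmp]
    intro hdvd
    obtain ⟨x, hx⟩ := exists_prime_orderOf_dvd_card' m hdvd
    have h1 := hQord (x : G) x.2
    rw [Subgroup.orderOf_coe, hx] at h1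
    exact hmp.one_lt.ne' ((Nat.coprime_self m).1 h1)
  · -- |G : Q| coprime to n
    by_contra hnc
    obtain ⟨r, hr, hr1, hr2⟩ := Nat.Prime.not_coprime_iff_dvd.1 hnc
    have hrm : r ≠ m := by
      rintro rfl
      have h4 : r ∣ Nat.gcd r n := Nat.dvd_gcd dvd_rfl hr2
      rw [hyp.2.2.2.1] at h4
      exact hr.one_lt.ne' (Nat.dvd_one.1 h4)
    have : Fact r.Prime := ⟨hr⟩
    obtain ⟨R⟩ : Nonempty (Sylow r G) := inferInstance
    have hRQ : (R : Subgroup G) ≤ Q := by
      intro x hx
      obtain ⟨b, hb, hbx⟩ := hSyl m n hyp m hmp dvd_rfl x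
      obtain ⟨k, hk⟩ := (IsPGroup.iff_orderOf.1 R.isPGroup') ⟨x, hx⟩
      have hk' : orderOf x = r ^ k := by
        have h0 := Subgroup.orderOf_coe (⟨x, hx⟩ : (R : Subgroup G))
        rw [hk] at h0
        exact h0
      have hxT : x ∈ T := by
        refine ⟨b, hb, hbx.symm, ?_⟩
        rw [hk']
        exact Nat.Coprime.pow_left k ((Nat.coprime_primes hr hmp).2 hrm)
      exact Subgroup.subset_normalClosure hxT
    exact Sylow.not_dvd_index R (hr1.trans (Subgroup.index_dvd_of_le hRQ))

end Cfsg.Agent.Lib.Helper21.CS3
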